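import Cfsg.Agent.L0.Suz.Cov2C0
import Cfsg.Agent.L0.Suz.Cov2C1

/-! Generated action table. -/

set_option autoImplicit false
set_option maxRecDepth 100000

namespace Cfsg.Agent.L0.SuzCov2

theorem all : ∀ c < 32760, chk c = true := fun c hc =>
  allR_glue (d := 10) (n := 32) (forall_lt_succ' (forall_lt_succ' (forall_lt_succ' (forall_lt_succ' (forall_lt_succ' (forall_lt_succ' (forall_lt_succ' (forall_lt_succ' (forall_lt_succ' (forall_lt_succ' (forall_lt_succ' (forall_lt_succ' (forall_lt_succ' (forall_lt_succ' (forall_lt_succ' (forall_lt_succ' (forall_lt_succ' (forall_lt_succ' (forall_lt_succ' (forall_lt_succ' (forall_lt_succ' (forall_lt_succ' (forall_lt_succ' (forall_lt_succ' (forall_lt_succ' (forall_lt_succ' (forall_lt_succ' (forall_lt_succ' (forall_lt_succ' (forall_lt_succ' (forall_lt_succ' (forall_lt_succ' forall_lt_zero' b0) b1) b2) b3) b4) b5) b6) b7) b8) b9) b10) b11) b12) b13) b14) b15) b16) b17) b18) b19) b20) b21) b22) b23) b24) b25) b26) b27) b28) b29) b30) b31) c (lt_of_lt_of_le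 hc (by norm_num))

theorem rep {R : List (List ℕ)} (hR : RL.map Prod.fst = R) :
    Rep 8 R (ZMod 2) 1 (valL RL 2) :=
  rep_of_chk hR (by norm_num) (by norm_num) (hR ▸ by decide +kernel) (hR ▸ by decide +kernel)
    (hR ▸ by decide +kernel) le_rfl all

end Cfsg.Agent.L0.SuzCov2
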