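import Cfsg.Agent.L0.CoxPres
import Cfsg.Agent.L0.Suz.Grp
import Cfsg.Agent.L0.Suz.Cov2
import Cfsg.Agent.L0.Suz.Cov3

/-! The covering group of Suz. -/

set_option autoImplicit false
set_option maxRecDepth 100000

namespace Cfsg.Agent.L0.SuzG

open Cfsg.Spor

theorem isPres0 : IsPres x 7 SuzAct.R :=
  isPres_cox hall hx hiv (by decide +kernel) (by decide +kernel) (by decide +kernel)
    (by decide +kernel) (by decide +kernel)

/-- the words for the extra letters -/
def W : List (List ℕ) := [[1, 2, 3, 2, 3]]

/-- the relators with the extra letters -/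
def R : List (List ℕ) := SuzCov2.RL.map Prod.fst

theorem isPres : IsPres (fun i => ev x (subW 7 W i)) 8 R :=
  isPres0.extend (IV := [0, 1, 2, 3, 4, 5, 6]) rfl (by decide +kernel) (by decide +kernel) (by decide +kernel)
    (by decide +kernel) (by decide +kernel) (by decide +kernel)

theorem lower : LowerMult Suz (Multiplicative (ZMod 6)) :=
  haveI := card_le.1
  lower_coprime (m := 2) (n := 3) (by norm_num)
    (lower_two isPres (SuzCov2.rep rfl) (SuzCov3.rep (by decide +kernel))
      [(-3, 2), (15, 5), (18, 6), (-3, 13), (3, 17), (-15, 29), (3, 30), (-3, 31)]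
      [(4, 1), (-8, 5), (-8, 6), (-8, 16), (-8, 17), (8, 31)]
      (by decide +kernel) (by decide +kernel) (by decide +kernel))

end Cfsg.Agent.L0.SuzG
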